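/-
`L_{p'}`-balance for groups whose composition factors are known, from the Schreier property.
-/
import Cfsg.Agent.Loc.LBal
import Cfsg.Agent.K.BM0
import Cfsg.Statements.S1333
import Cfsg.Statements.S1334

set_option autoImplicit false
open Cfsg Subgroup CL.Even CL.Grp CL.Loc

namespace CL.BM

universe u

variable {p : ℕ} [hp : Fact p.Prime]

/-- `L`-balance in a subnormal subgroup `A` of a group with known composition factors -/
theorem lBal_of_compK {X : Type u} [Group X] [Finite X] (hS : Schreier.{u}) (hK : IsCompositionKGroup X)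
    {A : Subgroup X} (hA : A.IsSubnormal) : LBal p A := by
  refine lBal_of_schreier fun K hKc => ?_
  let H := K.comap (QuotientGroup.mk' (pPrimeCore p A))
  let f : H.map A.subtype →* K ⧸ center K := ((QuotientGroup.mk' _).comp
    ((QuotientGroup.mk' (pPrimeCore p A)).subgroupComap K)).comp (H.equivMapOfInjective _ A.subtype_injective).symm
  have hf : Function.Surjective f := ((QuotientGroup.mk'_surjective _).comp
    (MonoidHom.subgroupComap_surjective_of_surjective _ K (QuotientGroup.mk'_surjective _))).comp (MulEquiv.surjective _)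
  let e := QuotientGroup.quotientKerEquivOfSurjective f hf
  have h1 : IsSimpleGroup (K ⧸ center K) := hKc.2.2
  have h2 : IsSimpleGroup (H.map A.subtype ⧸ f.ker) := e.isSimpleGroup
  have h3 : ¬ IsMulCommutative (H.map A.subtype ⧸ f.ker) := fun hc => IsQuasisimple.not_isMulCommutative_quotient hKc.2
    ⟨⟨fun a b => e.symm.injective (by rw [map_mul, map_mul, hc.is_comm.comm])⟩⟩
  exact isSolvable_out_congr e (hS _ h2 h3 (hK _ ((hKc.1.comap _).trans' hA) f.ker h2 h3))

theorem LBal.cent_le {G : Type*} [Group G] [Finite G] {A P : Subgroup G} (hL : LBal p A) (hP : IsPGroup p P)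
    (h : P ≤ A) : pLayerOf p (A ⊓ 𝒞(P)) ≤ pLayerOf p A := by
  have e := map_pLayerOf_of_coprime (p := p) (H := 𝒞(P.subgroupOf A)) (f := A.subtype) (by simp)
  rw [map_subtype_centralizer, map_subgroupOf_eq_of_le h] at e
  rw [← e]
  exact map_mono (pLayerOf_le_iff.2 fun K hK => hL _ K hP.comap_subtype hK)

omit hp in
theorem s1333_of (hS : Schreier.{u}) : type_of% @Cfsg.CfsgFrozen.S1333.{u} := fun hK p _ P hP => by
  have := LBal.cent_le (lBal_of_compK (p := p) hS hK IsSubnormal.top) hP le_top
  rwa [top_inf_eq, pLayerOf_top] at this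

omit hp in
theorem s1334_of (hS : Schreier.{u}) : type_of% @Cfsg.CfsgFrozen.S1334.{u} := by
  intro G _ _ p hp hK
  have key (a b : G) (ha : orderOf a = p) (hb : orderOf b = p) (hab : a * b = b * a) :
      pLayerOf p (pLayerOf p (centralizer {a}) ⊓ centralizer {b}) = pLayerOf p (centralizer {a} ⊓ centralizer {b}) := by
    have hP {x : G} (hx : orderOf x = p) : IsPGroup p (zpowers x) :=
      isPGroup_zpowers (k := 1) (by rw [pow_one, ← hx, pow_orderOf_eq_one])
    refine le_antisymm (pLayerOf_mono_of_subnIn ((SubnIn.of_le_normalizer (pLayerOf_le _)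
      (le_normalizer.trans (norm_le_norm_pLayerOf _))).inf_right _)) (pLayerOf_le_iff.2 fun K hKc => ?_)
    refine (hKc.of_le (le_inf (hKc.le_pLayerOf.trans ?_) (hKc.le.trans inf_le_right))
      (inf_le_inf_right _ (pLayerOf_le _))).le_pLayerOf
    have hN := hK _ (hP ha) fun e => hp.out.one_lt.ne' (by rw [← ha, zpowers_eq_bot.1 e, orderOf_one])
    have hle : 𝒞(zpowers a) ≤ 𝒩(zpowers a) := cent_le_norm _
    have hb' : zpowers b ≤ 𝒞(zpowers a) := by
      rw [cent_zpowers]; exact zpowers_le.2 (mem_centralizer_singleton_iff.2 hab.symm)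
    have h1 := map_mono (f := 𝒩(zpowers a).subtype) (LBal.cent_le (P := (zpowers b).subgroupOf _)
      (lBal_of_compK (p := p) hS hN (subnIn_iff.1 (subnIn_cent_norm (zpowers a))).2) (hP hb).comap_subtype
      (comap_mono hb'))
    rwa [map_pLayerOf_of_coprime (by simp), map_pLayerOf_of_coprime (by simp), map_inf _ _ _ (subtype_injective _),
      map_subtype_centralizer, map_subgroupOf_eq_of_le hle, map_subgroupOf_eq_of_le (hb'.trans hle), ← inf_assoc,
      inf_eq_left.2 hle, cent_zpowers, cent_zpowers] at h1
  intro a b ha hb hab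
  exact (key a b ha hb hab).trans ((congrArg _ (inf_comm _ _)).trans (key b a hb ha hab.symm).symm)

end CL.BM
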