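/-
The nodes of the twisted (B,N)-pairs inside the general linear group: support of the groups `U_n` and coordinates.
-/
import Cfsg.Agent.K.KZ0
import Cfsg.Agent.Known.LieForm

set_option autoImplicit false

namespace CL.NS

open Cfsg CL.Chev CL.Chev.St CL.Chev.SharpBN CL.Chev.BN CL.Cop5 CL.Chev.GLB Equiv
open Matrix hiding swap swap_mul_self swap_comm

section General

variable {G : Type*} [Group G]

/-- An injective coordinate. -/
theorem node_of_inj {X H : Subgroup G} {L : Type*} [Field L] {lam : G → L}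
    (conj : ∀ h ∈ H, ∀ u ∈ X, h * u * h⁻¹ ∈ X) (comm : ∀ a ∈ H, ∀ b ∈ H, a * b = b * a)
    (add : ∀ u ∈ X, ∀ v ∈ X, lam (u * v) = lam u + lam v) (surj : ∀ t, ∃ u ∈ X, lam u = t)
    (tor : ∀ t, t ≠ 0 → ∃ h ∈ H, ∀ u ∈ X, lam (h * u * h⁻¹) = t ^ 2 * lam u)
    (inj : ∀ u ∈ X, lam u = 0 → u = 1) : Node X H lam :=
  ⟨conj, comm, add, surj, tor, fun Y hY u hu => by
    obtain ⟨v, h1, h2, e⟩ := hY (lam u)
    have h3 := add _ (mul_mem hu (inv_mem h2)) v h2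
    rw [inv_mul_cancel_right, e, right_eq_add] at h3
    exact eq_of_mul_inv_eq_one (inj _ (mul_mem hu (inv_mem h2)) h3) ▸ h1⟩

variable {Q : SharpBN G} {σ : G ≃* G} {G₁ : Type*} [Group G₁] {f : G₁ →* G} {ρ : Perm Q.S} {κ : Type*}
  {J : κ → Set Q.S} {n : κ → G₁}

theorem twist_Un_le (T : Q.Twist σ f ρ J n) {k : κ} {s : Q.S} (hs : s ∈ J k) : Q.Un s ≤ Q.Un (f (n k)) := by
  have h2 : gen Q.P s * T.v k = BN.mk Q.P ((genN s)⁻¹ * T.nN k) := by
    rw [map_mul, map_inv, ← gen_def, (invGen Q.P).inv]; rfl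
  have h3 := Un_le_Un_mul (Q := Q) (n := genN s) (n' := (genN s)⁻¹ * T.nN k) (by
    rw [← h2, ← gen_def, (invGen Q.P).cancel_left, (exchange Q.P).wlen_gen (invGen Q.P)]
    have := (invGen Q.P).wlen_le_gen_mul s (T.v k)
    have := (T.longest k).2 s hs
    omega)
  rwa [Subgroup.coe_mul, Subgroup.coe_inv, mul_inv_cancel_left] at h3

/-- An orbit with one element. -/
theorem twist_Un_eq (T : Q.Twist σ f ρ J n) {k : κ} {s : Q.S} (hs : s ∈ J k) (h : ρ s = s) :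
    Q.Un (f (n k)) = Q.Un s := by
  have h1 : J k = {s} := Set.eq_singleton_iff_unique_mem.2 ⟨hs, fun t ht =>
    (T.orbit k).forall_of_exists (p := (· = s)) (fun x => by rw [← h, ρ.apply_eq_iff_eq, h]) hs ht rfl⟩
  exact Un_congr (n := T.nN k) (n' := genN s) (eq_of_mem_cell (self_mem_cell (T.nN k))
    ((mem_cellSubgroup_singleton.1 (h1 ▸ T.n_par k)).resolve_left (T.n_notMem_B k)))

/-- The nodes of a subgroup containing `U` and `V`. -/
theorem refl_Un (T : Q.Twist (MulEquiv.refl G) f ρ J n) (k : κ) : ∃ s : Q.S, Q.Un (f (n k)) = Q.Un s :=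
  let ⟨s, hs⟩ := (T.orbit k).nonempty
  ⟨s, twist_Un_eq T hs (Subtype.ext (Q.inj _ (ρ s).2 _ s.2 (T.map_S s)))⟩

end General

variable {ι : Type*} [Fintype ι] [DecidableEq ι] {F : Type*} [Field F]

theorem det_dg (d : ι → Fˣ) : (dg d).val.det = ∏ i, d i := by
  rw [coe_dg, det_diagonal, Units.coe_prod]

theorem tv_comm {i j k l : ι} (h : i ≠ j) (h' : k ≠ l) (h1 : j ≠ k) (h2 : l ≠ i) (a b : F) :
    tv h a * tv h' b = tv h' b * tv h a := by
  ext : 1
  simp only [Units.val_mul, coe_tv, transvection, add_mul, mul_add, one_mul, mul_one, single_mul_single_of_ne _ _ _ _ h1,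
    single_mul_single_of_ne _ _ _ _ h2]
  abel

theorem dg_conj_apply (d : ι → Fˣ) (g : GL ι F) (i j : ι) :
    (dg d * g * (dg d)⁻¹).val i j = d i * g.val i j * (d j : F)⁻¹ := by
  rw [← map_inv, mul_dg_apply, dg_mul_apply]
  simp

variable {θ : F →+* F} {τ : Perm ι} {e : ι → Fˣ}

theorem sig_entry (g : GL ι F) (i j : ι) :
    (sig θ τ e g).val i j = (e i : F)⁻¹ * θ (g⁻¹.val (τ j) (τ i)) * e j := by
  rw [sig_apply, GLB.conj_apply, itr_apply]

theorem sig_dg (d : ι → Fˣ) : sig θ τ e (dg d) = dg fun i => Units.map θ (d (τ i))⁻¹ := by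
  rw [sig_apply, itr_dg, mul_assoc, ← mul_assoc (dg _), dg_mul_pm, mul_assoc, ← map_mul dg, mul_comm, map_mul,
    ← mul_assoc (pm F τ), inv_mul_cancel_left]
  rfl

/-- A diagonal isometry of determinant one with prescribed entries at `i`, `j`. -/
theorem exists_dg_fixed (h : Function.Involutive (sig θ τ e)) {i j : ι} (hij : i ≠ j) (h1 : τ i ≠ i) (h2 : τ i ≠ j)
    (h3 : τ j ≠ i) (h4 : τ j ≠ j) (t : Fˣ) :
    ∃ d : ι → Fˣ, sig θ τ e (dg d) = dg d ∧ (dg d).val.det = 1 ∧ d i = t ∧ d j = t⁻¹ := by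
  let d : ι → Fˣ := Pi.mulSingle i t * Pi.mulSingle j t⁻¹
  have hd : ∏ x, d x = 1 := by simp [d, Finset.prod_mul_distrib]
  refine ⟨d * fun x => Units.map θ (d (τ x))⁻¹, ?_, ?_, ?_, ?_⟩
  · rw [map_mul, ← sig_dg (e := e), map_mul, h, sig_dg, ← map_mul, ← map_mul, mul_comm]
  · rw [det_dg]
    simp only [Pi.mul_apply, Finset.prod_mul_distrib]
    rw [← map_prod, Finset.prod_inv_distrib, Equiv.prod_comp τ d, hd]
    simp
  · simp [d, hij, h1, h2]
  · simp [d, hij.symm, h3, h4]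

variable [LinearOrder ι]

variable (F) in
/-- The generator belonging to a covering pair. -/
noncomputable def cov {i j : ι} (h : i ⋖ j) : (glBN ι F).S := ⟨pm F (swap i j), i, j, h, rfl⟩

theorem exists_cov (s : (glBN ι F).S) : ∃ (i j : ι) (h : i ⋖ j), s = cov F h :=
  let ⟨i, j, h, e⟩ := s.2; ⟨i, j, h, Subtype.ext e⟩

theorem cov_inj {i j k l : ι} {h : i ⋖ j} {h' : k ⋖ l} : cov F h = cov F h' ↔ i = k ∧ j = l := by
  refine ⟨fun e => ?_, by rintro ⟨rfl, rfl⟩; rfl⟩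
  have e1 : pm F (swap i j) = pm F (swap k l) := congrArg Subtype.val e
  have e2 : (swap i j)⁻¹ * swap k l = 1 := eq_one_of_pm_mem (F := F) (by
    rw [map_mul, map_inv, e1, inv_mul_cancel]; exact one_mem _)
  exact eq_of_swap_lt h' h.lt (by rw [← inv_mul_eq_one.1 e2]; simpa using h.lt)

theorem mem_Un_cov {i j : ι} (h : i ⋖ j) {u : GL ι F} : u ∈ (glBN ι F).Un (cov F h) ↔ ∃ c, u = tv h.ne c := by
  have := mem_glBN_Un (w := swap i j) (d := 1) (u := u)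
  rw [map_one, mul_one, swap_inv] at this
  refine this.trans ⟨fun h1 => ⟨_, eq_tv h h1.1 h1.2⟩, ?_⟩
  rintro ⟨c, rfl⟩
  exact ⟨tv_mem_uni _ _ h.lt, tv_mem_uni _ _ (by simpa using h.lt)⟩

theorem inv_apply_covBy {i j : ι} (h : i ⋖ j) {u : GL ι F} (hu : u ∈ uni F (id : ι → ι)) :
    u⁻¹.val i j = -u.val i j := by
  have h1 := mul_apply_covBy h (inv_mem hu) hu
  rw [inv_mul_cancel, Units.val_one, one_apply_ne h.ne] at h1
  exact eq_neg_of_add_eq_zero_left h1.symm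

section Twist

variable {σ : GL ι F ≃* GL ι F} {G₁ : Type*} [Group G₁] {f : G₁ →* GL ι F} {ρ : Perm (glBN ι F).S} {κ : Type*}
  {J : κ → Set (glBN ι F).S} {n : κ → G₁}

theorem lt_of_cov_mem (T : (glBN ι F).Twist σ f ρ J n) {k : κ} {w : Perm ι} {d : ι → Fˣ}
    (e : f (n k) = pm F w * dg d) {i j : ι} {h : i ⋖ j} (hs : cov F h ∈ J k) : w⁻¹ j < w⁻¹ i := by
  have h1 := twist_Un_le T hs ((mem_Un_cov h).2 ⟨1, rfl⟩)
  rw [e, mem_glBN_Un] at h1
  by_contra h2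
  simpa [tv_apply, h.ne] using mem_uni.1 h1.2 i j h2

theorem lt_of_cov_notMem (T : (glBN ι F).Twist σ f ρ J n) {k : κ} {w : Perm ι} {d : ι → Fˣ}
    (e : f (n k) = pm F w * dg d) {i j : ι} {h : i ⋖ j} (hs : cov F h ∉ J k) {a b : ι} (ha : a ≤ i) (hb : j ≤ b) :
    w⁻¹ a < w⁻¹ b := by
  have h1 : cellSubgroup (glBN ι F).P (J k) ≤ par F fun x => j ≤ x := by
    refine cellSubgroup_le_iff.2 ⟨par_mono fun x y hxy => ?_, fun s hs' => ?_⟩
    · exact lt_of_not_ge fun h' : y ≤ x => hxy.not_ge fun h'' => h''.trans h'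
    · obtain ⟨x, y, hxy, rfl⟩ := exists_cov s
      have h2 : ¬ (x = i ∧ y = j) := fun h2 => hs ((cov_inj (F := F) (h := hxy) (h' := h)).2 h2 ▸ hs')
      have := (pm_mul_dg_mem_par (F := F) (b := fun x => j ≤ x) (w := swap x y) (d := 1)).2 fun z (h3 : j ≤ _) => by
        have a1 := hxy.lt
        have a2 := h.lt
        have a3 : i < x → x < j → False := fun a b => h.2 a b
        have a4 : x < i → i < y → False := fun a b => hxy.2 a b
        have a5 : x < j → j < y → False := fun a b => hxy.2 a b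
        change j ≤ z
        rw [swap_apply_def] at h3
        grind
      rwa [map_one, mul_one] at this
  have h2 := h1 (T.n_par k)
  have h3 := inv_mem h2
  rw [e] at h2 h3
  rw [_root_.mul_inv_rev, ← map_inv, ← map_inv, dg_mul_pm] at h3
  have h4 : j ≤ w⁻¹ a → j ≤ a := pm_mul_dg_mem_par.1 h3 a
  have h5 : j ≤ w (w⁻¹ b) → j ≤ w⁻¹ b := pm_mul_dg_mem_par.1 h2 (w⁻¹ b)
  exact (lt_of_not_ge fun h6 => (ha.trans_lt h.lt).not_ge (h4 h6)).trans_le (h5 (by simpa using hb))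

/-- The entry at a covering pair as a coordinate. -/
theorem node_entry (T : (glBN ι F).Twist σ f ρ J n) (k : κ) {i j : ι} (h : i ⋖ j)
    (inj : ∀ u, f u ∈ (glBN ι F).Un (f (n k)) → (f u).val i j = 0 → f u = 1)
    (surj : ∀ t, ∃ u ∈ (glBN ι F).Un (f (n k)), σ u = u ∧ u.val i j = t)
    (tor : ∀ t : Fˣ, ∃ d, dg d ∈ f.range ∧ d i = t ^ 2 * d j) :
    Node (T.sharp.Un (n k)) T.sharp.H fun u => (f u).val i j := by
  refine node_of_inj (fun g hg u hu => conj_Un (T.n_mem k) hg hu) (fun a ha b hb => T.inj ?_)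
    (fun u hu v hv => by rw [map_mul]; exact mul_apply_covBy h hu.1 hv.1) (fun t => ?_) (fun t ht => ?_)
    fun u hu h0 => T.inj ((inj u (T.mem_sharp_Un.1 hu) h0).trans (map_one f).symm)
  · rw [T.sharp_H, glBN_H] at ha hb
    obtain ⟨a', ha⟩ := ha
    obtain ⟨b', hb⟩ := hb
    rw [map_mul, map_mul, ← ha, ← hb, ← map_mul, mul_comm, map_mul]
  · obtain ⟨u, hu, h1, h2⟩ := surj t
    obtain ⟨u, rfl⟩ := T.fixU k u hu h1
    exact ⟨u, T.mem_sharp_Un.2 hu, h2⟩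
  · obtain ⟨d, ⟨g, hg⟩, hd⟩ := tor (Units.mk0 t ht)
    refine ⟨g, by rw [T.sharp_H, glBN_H]; exact ⟨d, hg.symm⟩, fun u _ => ?_⟩
    rw [map_mul, map_mul, map_inv, hg, dg_conj_apply, hd]
    simp
    field_simp

end Twist

theorem covBy_of_strictAnti (hτ : StrictAnti τ) {i j : ι} (h : i ⋖ j) : τ j ⋖ τ i :=
  ⟨hτ h.lt, fun c h1 h2 => h.2 (hτ.lt_iff_gt.1 (show τ (τ c) < τ i by rwa [involutive_of_strictAnti hτ]))
    (hτ.lt_iff_gt.1 (show τ j < τ (τ c) by rwa [involutive_of_strictAnti hτ]))⟩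

/-- The entries of an isometry at the pairs `(i, j)` and `(τ j, τ i)`. -/
theorem entry_of_fixed (hτ : StrictAnti τ) {i j : ι} (h : i ⋖ j) {u : GL ι F} (hu : u ∈ uni F (id : ι → ι))
    (hf : sig θ τ e u = u) : u.val (τ j) (τ i) = -((e (τ j) : F)⁻¹ * θ (u.val i j) * e (τ i)) := by
  conv_lhs => rw [← hf, sig_entry, involutive_of_strictAnti hτ, involutive_of_strictAnti hτ, inv_apply_covBy h hu]
  simp

/-- The positions above the diagonal which belong to the orbit of the covering pair `(i, j)`. -/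
def Pos (τ : Perm ι) (i j a b : ι) : Prop := (a = i ∧ b = j) ∨ (a = τ j ∧ b = τ i) ∨ (τ j = j ∧ a = i ∧ b = τ i)

section Form

variable {hσ : Function.Involutive (sig θ τ e)} {G₁ : Type*} [Group G₁] {f : G₁ →* GL ι F} {ρ : Perm (glBN ι F).S}
  {κ : Type*} {J : κ → Set (glBN ι F).S} {n : κ → G₁}

theorem rho_cov (hτ : StrictAnti τ) (T : (glBN ι F).Twist (sigE hσ) f ρ J n) {i j : ι} (h : i ⋖ j) :
    ρ (cov F h) = cov F (covBy_of_strictAnti hτ h) := by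
  refine Subtype.ext ((glBN ι F).inj _ (ρ _).2 _ (cov F _).2 ?_)
  obtain ⟨d, hd⟩ := sig_pm (θ := θ) (τ := τ) (e := e) (swap i j)
  have h1 : _ * sig θ τ e (pm F (swap i j)) ∈ _ := T.map_S (cov F h)
  rw [hd, ← mul_assoc, show τ⁻¹ * swap i j * τ = swap (τ j) (τ i) by
    rw [swap_comm (τ j), ← inv_eq_of_strictAnti hτ, swap_apply_apply, inv_inv, inv_eq_of_strictAnti hτ]] at h1
  exact (mul_mem_cancel_right (dg_mem_par d)).1 h1

theorem cov_mem_iff (hτ : StrictAnti τ) (T : (glBN ι F).Twist (sigE hσ) f ρ J n) {k : κ} {i j a b : ι} {h : i ⋖ j}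
    (hs : cov F h ∈ J k) (h' : a ⋖ b) : cov F h' ∈ J k ↔ (a = i ∧ b = j) ∨ (a = τ j ∧ b = τ i) := by
  have h1 : ∀ s, ρ (ρ s) = s := fun s => by
    obtain ⟨x, y, hxy, rfl⟩ := exists_cov s
    rw [rho_cov hτ T, rho_cov hτ T, cov_inj]
    exact ⟨involutive_of_strictAnti hτ x, involutive_of_strictAnti hτ y⟩
  rw [← cov_inj (F := F) (h := h') (h' := h), ← cov_inj (F := F) (h := h') (h' := covBy_of_strictAnti hτ h),
    ← rho_cov hτ T h]
  refine ⟨fun ht => (T.orbit k).forall_of_exists (p := fun t => t = cov F h ∨ t = ρ (cov F h)) (fun x => ?_) hs ht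
    (.inl rfl), ?_⟩
  · rw [ρ.apply_eq_iff_eq, or_comm, ← ρ.apply_eq_iff_eq (y := ρ _), h1]
  · rintro (e | e) <;> rw [e]
    exacts [hs, (T.orbit k).apply_mem_iff.2 hs]

/-- The support of the elements of a node. -/
theorem mem_Un_form (hτ : StrictAnti τ) (T : (glBN ι F).Twist (sigE hσ) f ρ J n) (k : κ) :
    ∃ i j, i ⋖ j ∧ τ i ≠ i ∧ ∀ u, u ∈ (glBN ι F).Un (f (n k)) ↔
      u ∈ uni F (id : ι → ι) ∧ ∀ a b, a < b → ¬ Pos τ i j a b → u.val a b = 0 := by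
  have hi := involutive_of_strictAnti hτ
  obtain ⟨i, j, h, hs, h1⟩ : ∃ (i j : ι) (h : i ⋖ j), cov F h ∈ J k ∧ τ i ≠ i := by
    obtain ⟨s, hs⟩ := (T.orbit k).nonempty
    obtain ⟨i, j, h, rfl⟩ := exists_cov s
    by_cases h1 : τ i = i
    · refine ⟨_, _, covBy_of_strictAnti hτ h, (cov_mem_iff hτ T hs _).2 (.inr ⟨rfl, rfl⟩), fun h2 => ?_⟩
      have := hτ h.lt
      rw [hi] at h2
      rw [h1, ← h2] at this
      exact h.lt.not_gt this
    · exact ⟨i, j, h, hs, h1⟩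
  obtain ⟨w, d, e⟩ := T.n_mem k
  have h2 := lt_of_cov_mem T e hs
  have h3 := lt_of_cov_mem T e ((cov_mem_iff hτ T hs (covBy_of_strictAnti hτ h)).2 (.inr ⟨rfl, rfl⟩))
  have key : ∀ a b, a < b → (w⁻¹ b < w⁻¹ a ↔ Pos τ i j a b) := fun a b hab => by
    refine ⟨fun h4 => ?_, ?_⟩
    · have h5 : ∀ x y, x ⋖ y → a ≤ x → y ≤ b → (x = i ∧ y = j) ∨ (x = τ j ∧ y = τ i) := fun x y hxy hx hy =>
        (cov_mem_iff hτ T hs hxy).1 (by_contra fun h6 => (lt_of_cov_notMem T e h6 hx hy).not_gt h4)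
      have a1 := h.lt
      have a2 := hτ h.lt
      let _ : LocallyFiniteOrder ι := Fintype.toLocallyFiniteOrder
      obtain ⟨x, hx, hx'⟩ := exists_covBy_le_of_lt hab
      have b1 := h5 a x hx le_rfl hx'
      rcases hx'.eq_or_lt with rfl | hx'
      · exact b1.imp_right .inl
      obtain ⟨y, hy, hy'⟩ := exists_covBy_le_of_lt hx'
      have b2 := h5 x y hy hx.le hy'
      rcases hy'.eq_or_lt with rfl | hy'
      · unfold Pos
        grind
      obtain ⟨z, hz, hz'⟩ := exists_covBy_le_of_lt hy'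
      have b3 := h5 y z hz (hx.le.trans hy.le) hz'
      grind
    · rintro (⟨rfl, rfl⟩ | ⟨rfl, rfl⟩ | ⟨h4, rfl, rfl⟩)
      exacts [h2, h3, (h4 ▸ h3 :).trans h2]
  refine ⟨i, j, h, h1, fun u => ?_⟩
  rw [e, mem_glBN_Un]
  refine and_congr_right fun hu => ⟨fun h4 a b hab h5 => ?_, fun h4 => mem_uni.2 fun a b h5 => ?_⟩
  · exact (mem_uni.1 h4 a b fun h6 => h5 ((key a b hab).1 h6)).trans (if_neg hab.ne)
  · by_cases hab : a < b
    · exact (h4 a b hab fun h6 => h5 ((key a b hab).2 h6)).trans (if_neg hab.ne).symm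
    · exact mem_uni.1 hu a b hab

end Form

/-- If the two pairs are not adjacent, the entry at `(i, j)` determines the element. -/
theorem eq_one_of_entry (hτ : StrictAnti τ) {i j : ι} (h : i ⋖ j) (hj : τ j ≠ j) {u : GL ι F}
    (hu : u ∈ uni F (id : ι → ι)) (hs : ∀ a b, a < b → ¬ Pos τ i j a b → u.val a b = 0) (hf : sig θ τ e u = u)
    (h0 : u.val i j = 0) : u = 1 := by
  ext a b
  rw [Units.val_one, one_apply]
  by_cases hab : a < b
  · rw [if_neg hab.ne]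
    by_contra h1
    rcases by_contra fun h2 => h1 (hs a b hab h2) with ⟨rfl, rfl⟩ | ⟨rfl, rfl⟩ | ⟨h2, -⟩
    · exact h1 h0
    · exact h1 (by rw [entry_of_fixed hτ h hu hf, h0]; simp)
    · exact hj h2
  · exact mem_uni.1 hu a b hab

theorem tv_supp {i j a b : ι} (h : a < b) (hp : Pos τ i j a b) (c : F) : tv h.ne c ∈ uni F (id : ι → ι) ∧
    ∀ x y, x < y → ¬ Pos τ i j x y → (tv h.ne c).val x y = 0 :=
  ⟨tv_mem_uni _ _ h, fun x y hxy h1 => by
    rw [tv_apply, if_neg hxy.ne, if_neg (c := a = x ∧ b = y) fun h2 => h1 (h2.1 ▸ h2.2 ▸ hp), add_zero]⟩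

/-- Two commuting pairs: every value occurs. -/
theorem exists_entry (hτ : StrictAnti τ) (hσ : Function.Involutive (sig θ τ e)) {i j : ι} (h : i ⋖ j) (h1 : τ i ≠ i)
    (h2 : τ i ≠ j) (h3 : τ j ≠ j) {X : Subgroup (GL ι F)}
    (hX : ∀ u, u ∈ X ↔ u ∈ uni F (id : ι → ι) ∧ ∀ a b, a < b → ¬ Pos τ i j a b → u.val a b = 0) (t : F) :
    ∃ u ∈ X, sig θ τ e u = u ∧ u.val i j = t := by
  have hi := involutive_of_strictAnti hτ
  obtain ⟨c, hc⟩ : ∃ c, sig θ τ e (tv h.ne t) = tv (hτ h.lt).ne c := by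
    have := sig_tv (θ := θ) (τ := τ) (e := e) h.ne t
    simp only [inv_eq_of_strictAnti hτ] at this
    exact ⟨_, this⟩
  refine ⟨tv h.ne t * tv (hτ h.lt).ne c, mul_mem ((hX _).2 (tv_supp h.lt (.inl ⟨rfl, rfl⟩) t))
    ((hX _).2 (tv_supp (hτ h.lt) (.inr (.inl ⟨rfl, rfl⟩)) c)), ?_, ?_⟩
  · rw [map_mul, ← hc, hσ, hc, tv_comm _ _ h1 h3.symm]
  · rw [mul_apply_covBy h (tv_mem_uni _ _ h.lt) (tv_mem_uni _ _ (hτ h.lt)), tv_apply, tv_apply]
    simp [h.ne, h2]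

/-- The middle pair. -/
theorem sig_tv_mid (hτ : StrictAnti τ) {i : ι} (h : i ≠ τ i) {c : F} :
    sig θ τ e (tv h c) = tv h c ↔ θ c * e (τ i) + c * e i = 0 := by
  have h1 := sig_tv (θ := θ) (τ := τ) (e := e) h c
  simp only [inv_eq_of_strictAnti hτ, involutive_of_strictAnti hτ i] at h1
  rw [h1, ← mul_inv_eq_one, tv_inv, tv_mul, tv_eq_one, ← mul_eq_zero_iff_left (neg_ne_zero.2 (e i).ne_zero)]
  refine Eq.congr_left ?_
  field_simp
  ring

/-- The elements of the middle node. -/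
theorem eq_tv_mid (hτ : StrictAnti τ) {i : ι} (h : i ⋖ τ i) {u : GL ι F} : (u ∈ uni F (id : ι → ι) ∧
    ∀ a b, a < b → ¬ Pos τ i (τ i) a b → u.val a b = 0) ↔ ∃ c, u = tv h.ne c := by
  refine ⟨fun ⟨hu, hs⟩ => ⟨_, eq_tv h hu (mem_uni.2 fun a b h1 => ?_)⟩, ?_⟩
  · by_cases hab : a < b
    · refine (hs a b hab ?_).trans (if_neg hab.ne).symm
      rintro (⟨rfl, rfl⟩ | ⟨h2, rfl⟩ | ⟨-, rfl, rfl⟩)
      · exact h1 (by simpa using hab)
      · rw [involutive_of_strictAnti hτ] at h2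
        subst h2
        exact h1 (by simpa using hab)
      · exact h1 (by simpa using hab)
    · exact mem_uni.1 hu a b hab
  · rintro ⟨c, rfl⟩
    exact tv_supp h.lt (.inl ⟨rfl, rfl⟩) c

/-- The node of two commuting pairs. -/
theorem node_comm {hσ : Function.Involutive (sig θ τ e)} {G₁ : Type*} [Group G₁] {f : G₁ →* GL ι F}
    {ρ : Perm (glBN ι F).S} {κ : Type*} {J : κ → Set (glBN ι F).S} {n : κ → G₁} (hτ : StrictAnti τ)
    (T : (glBN ι F).Twist (sigE hσ) f ρ J n) (k : κ) {i j : ι} (h : i ⋖ j) (h1 : τ i ≠ i) (h2 : τ i ≠ j)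
    (h3 : τ j ≠ j) (hX : ∀ u, u ∈ (glBN ι F).Un (f (n k)) ↔
      u ∈ uni F (id : ι → ι) ∧ ∀ a b, a < b → ¬ Pos τ i j a b → u.val a b = 0)
    (hd : ∀ d, sig θ τ e (dg d) = dg d → (dg d).val.det = 1 → dg d ∈ f.range) :
    Node (T.sharp.Un (n k)) T.sharp.H fun u => (f u).val i j :=
  node_entry T k h (fun u hu => eq_one_of_entry hτ h h3 ((hX _).1 hu).1 ((hX _).1 hu).2 (T.fix u))
    (exists_entry hτ hσ h h1 h2 h3 hX) fun t => by
      obtain ⟨d, a1, a2, a3, a4⟩ := exists_dg_fixed hσ h.ne h1 h2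
        (fun a => h2 (by rw [← a, involutive_of_strictAnti hτ])) h3 t
      exact ⟨d, hd d a1 a2, by rw [a3, a4, sq, mul_inv_cancel_right]⟩

end CL.NS
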